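import Cfsg.Agent.H675.RG.TwoY
import Cfsg.Agent.H28.RG.Cent
import Cfsg.Agent.H169.RG.LRG
import Cfsg.Agent.GenExc.LeviQs

/-!
# S3509: mixed covers, two components with long root elements, frame version (helper675)

`f : TorForm m s`; the `p'`-members of the family are in `⟨s⟩`, `u` the member of order `r`.

* `Dv f S₂` : the roots of `Sx f.t` are divided in `S₂` and the rest, the root groups of the two parts commute;
* `mixed_two` : two `α`-fixed elements of root groups of different parts, long root elements in `Y^σ`: no cover.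
-/

set_option autoImplicit false
set_option linter.unusedSectionVars false
open Cfsg

namespace Cfsg.Agent.H675.RG

open CoxeterSystem Cfsg Cfsg.Lie Cfsg.Lie.ChevalleyDatum
open Cfsg.Agent.ChevalleyStructure Cfsg.Agent.ChevalleyStructure.Elts Cfsg.Agent.ChevalleyStructure.CoxeterGeom
  Cfsg.Agent.ChevalleyStructure.CoxeterGeomTypes Cfsg.Agent.ChevalleyStructure.NPerm
open Cfsg.Agent.Tits.Roots Cfsg.Agent.Tits.Core Cfsg.Agent.Nodes Cfsg.Agent.Nodes.Reps Cfsg.Agent.Nodes.BNOf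
  Cfsg.Agent.Nodes.RGDChev Cfsg.Agent.Nodes.Bruhat Cfsg.Agent.Nodes.NormalForm
open Cfsg.Agent.KFacts.RgdField Cfsg.Agent.KFacts.RgdChevCoord
open Cfsg.Agent.BpExc Cfsg.Agent.BpExc.TorCent Cfsg.Agent.BpExc.TorChev Cfsg.Agent.BpExc.Tow
  Cfsg.Agent.BpExc.TowChev Cfsg.Agent.BpExc.Fr Cfsg.Agent.BpExc.Pair Cfsg.Agent.BpExc.LangFr Cfsg.Agent.GpExc.Field
open Cfsg.Agent.H469.Exc Cfsg.Agent.H316.U6 Cfsg.Agent.H169.RG
open MulAction Subgroup Cfsg.Agent.H106.RC Cfsg.Agent.H327.RG Cfsg.Agent.H368.RG Cfsg.Agent.H873.RG Cfsg.Agent.H380.RC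
  Cfsg.Agent.H694.RG

/-- `O_p` of a normal subgroup -/
theorem pCore_normal_bot {G : Type*} [Group G] {p : ℕ} {C C' : Subgroup G} (hle : C' ≤ C)
    (hn : ∀ c ∈ C, ∀ z ∈ C', c * z * c⁻¹ ∈ C') (h : pCore p ↥C = ⊥) : pCore p ↥C' = ⊥ := by
  have hX : (C'.subgroupOf C).Normal := by
    refine ⟨fun z hz c => ?_⟩
    rw [Subgroup.mem_subgroupOf] at hz ⊢
    rw [Subgroup.coe_mul, Subgroup.coe_mul, Subgroup.coe_inv]
    exact hn c c.2 z hz
  have h1 := Cfsg.Agent.Lib.Cores.map_subtype_pCore p hX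
  rw [h, inf_bot_eq, Subgroup.map_eq_bot_iff_of_injective _ (Subgroup.subtype_injective _)] at h1
  have h2 := Cfsg.Agent.Lib.Cores.map_equiv_pCore (Subgroup.subgroupOfEquivOfLe hle) p
  rw [← h2, h1, Subgroup.map_bot]

section

variable {D : ChevalleyDatum} {l : ℕ} {M : CoxeterMatrix (Fin l)} {hp : IsType D l M} {r q : ℕ} [hr : Fact r.Prime]
  {K₀ : Type} [Group K₀] {m : MData hp r q K₀} {s : ↥(D.group (KK r))} (f : TorForm m s)

/-- `((MM t) T)^α` -/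
noncomputable def KKf : Subgroup ↥(D.group (KK r)) :=
  H28.RG.Cent.KK hp M.toCoxeterSystem f.t f.α

/-- its image in `Y^σ` -/
noncomputable def KKz : Subgroup ↥(D.group (KK r)) := cjS f.z (KKf f)

theorem mem_KKz {y : ↥(D.group (KK r))} : y ∈ KKz f ↔ f.z⁻¹ * y * f.z ∈ KKf f := mem_cjS

theorem KKf_le : KKf f ≤ fixC f.α f.t := H28.RG.Cent.KK_le hp M.toCoxeterSystem (locFin r) (r := r) f.mem

theorem KKz_le : KKz f ≤ fixC m.σ s := by
  intro y hy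
  have h1 := mem_fixC.1 (KKf_le f ((mem_KKz f).1 hy))
  exact mem_fixC.2 ⟨(f.fix_iff y).1 h1.1, (f.comm_iff y).2 h1.2⟩

theorem finite_KKz : Finite ↥(KKz f) := by
  have := m.fin
  have h1 : KKz f ≤ fixedSubgroup m.σ := fun y hy => (mem_fixC.1 (KKz_le f hy)).1
  exact Finite.of_injective (Subgroup.inclusion h1) (Subgroup.inclusion_injective _)

theorem finite_KKf : Finite ↥(KKf f) := by
  have := finite_KKz f
  exact Finite.of_injective (fun y : ↥(KKf f) => (⟨f.z * y * f.z⁻¹, (mem_KKz f).2 (by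
    have e : f.z⁻¹ * (f.z * (y : ↥(D.group (KK r))) * f.z⁻¹) * f.z = y := by group
    rw [e]; exact y.2)⟩ : ↥(KKz f))) fun a b h => by
      have h1 := congrArg Subtype.val h
      exact Subtype.ext (mul_left_cancel (mul_right_cancel h1))

theorem core_KKf : pCore r ↥(KKf f) = ⊥ := by
  have h1 : Finite ↥(H28.RG.Cent.KK hp M.toCoxeterSystem f.t f.α) := finite_KKf f
  exact H28.RG.Cent.core_KK hp M.toCoxeterSystem (locFin r) f.mem m.he (τ := f.α) f.frob f.fr f.fix f.pos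

theorem core_KKz : pCore r ↥(KKz f) = ⊥ := by
  have e : ↥(KKf f) ≃* ↥(KKz f) := (KKf f).equivMapOfInjective _ (MulAut.conj f.z).injective
  rw [← Cfsg.Agent.Lib.Cores.map_equiv_pCore e, core_KKf, Subgroup.map_bot]

/-- elements of order prime to `orderOf s` -/
theorem mem_KKz_of {d : ℕ} (hsd : s ^ d = 1) {c : ↥(D.group (KK r))} (hσ : m.σ c = c) (hc : c * s = s * c) {o : ℕ}
    (ho : o.Coprime d) (hco : c ^ o = 1) : c ∈ KKz f := by
  rw [mem_KKz]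
  refine H28.RG.Cent.mem_KK hp M.toCoxeterSystem (locFin r) (r := r) f.mem (f.pow_eq_one hsd)
    (mem_fixC.2 ⟨(f.fix_iff c).2 hσ, (f.comm_iff c).1 hc⟩) ho ?_
  have e : f.z⁻¹ * c * f.z = f.z⁻¹ * c * f.z⁻¹⁻¹ := by group
  rw [e, conj_pow, hco]
  group

/-- elements of root groups -/
theorem mem_KKz_XX {b : Fin l → ℤ} (hb : b ∈ Sx M.toCoxeterSystem hp.isCartan (ch hp) f.t) {v : ↥(D.group (KK r))}
    (hv : v ∈ XX D l (KK r) b) (hα : f.α v = v) : f.z * v * f.z⁻¹ ∈ KKz f := by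
  rw [mem_KKz]
  have e : f.z⁻¹ * (f.z * v * f.z⁻¹) * f.z = v := by group
  rw [e]
  exact ⟨(le_sup_left : _ ≤ MM M.toCoxeterSystem hp.isCartan (XX D l (KK r)) (ch hp) f.t ⊔ TT D (KK r))
    (RGD.le_Sup hb hv), hα⟩

/-- the torus normalises the groups generated by root groups -/
theorem torus_Sup {S : Set (Fin l → ℤ)} (hS : ∀ a ∈ S, IsRoot M.toCoxeterSystem hp.isCartan a)
    {t y : ↥(D.group (KK r))} (ht : t ∈ TT D (KK r)) (hy : y ∈ RGD.Sup (XX D l (KK r)) S) :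
    t * y * t⁻¹ ∈ RGD.Sup (XX D l (KK r)) S := by
  have := finite_W hp M.toCoxeterSystem
  have H := tow (k := KK r) hp M.toCoxeterSystem (locFin r) r
  have hTL := TL_eq (k := KK r) hp (locFin r)
  have hXL := XL_eq (k := KK r) hp (locFin r)
  have h1 : RGD.Sup (XX D l (KK r)) S ≤ (RGD.Sup (XX D l (KK r)) S).comap (MulAut.conj t).toMonoidHom := by
    refine RGD.Sup_le fun a ha x hx => ?_
    have h2 := H.cj_T (t := t) (by rw [hTL]; exact ht) (hS a ha)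
    rw [hXL] at h2
    refine RGD.le_Sup ha ?_
    rw [← h2]
    exact conj_mem_cj.2 hx
  exact h1 hy

/-- **Two parts**: the conjugates of an element of the second part commute with the first part -/
theorem conj_part {S₂ : Set (Fin l → ℤ)}
    (hcom : ∀ a ∈ Sx M.toCoxeterSystem hp.isCartan (ch hp) f.t, a ∉ S₂ →
      ∀ b ∈ Sx M.toCoxeterSystem hp.isCartan (ch hp) f.t, b ∈ S₂ →
      ∀ g ∈ XX D l (KK r) a, ∀ g' ∈ XX D l (KK r) b, g * g' = g' * g)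
    {b₂ : Fin l → ℤ} (hb₂ : b₂ ∈ Sx M.toCoxeterSystem hp.isCartan (ch hp) f.t) (hb₂' : b₂ ∈ S₂)
    {v₂ : ↥(D.group (KK r))} (hv₂ : v₂ ∈ XX D l (KK r) b₂) {g : ↥(D.group (KK r))} (hg : g ∈ KKf f) :
    g * v₂ * g⁻¹ ∈ RGD.Sup (XX D l (KK r)) {a | a ∈ Sx M.toCoxeterSystem hp.isCartan (ch hp) f.t ∧ a ∈ S₂} := by
  set M₂ := RGD.Sup (XX D l (KK r)) {a | a ∈ Sx M.toCoxeterSystem hp.isCartan (ch hp) f.t ∧ a ∈ S₂} with hM₂
  have key : MM M.toCoxeterSystem hp.isCartan (XX D l (KK r)) (ch hp) f.t ⊔ TT D (KK r) ≤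
      Subgroup.normalizer (M₂ : Set ↥(D.group (KK r))) := by
    refine sup_le (RGD.Sup_le fun a ha x hx => ?_) fun x hx => ?_
    · by_cases haS : a ∈ S₂
      · exact Subgroup.le_normalizer (RGD.le_Sup (X := XX D l (KK r))
          (S := {a | a ∈ Sx M.toCoxeterSystem hp.isCartan (ch hp) f.t ∧ a ∈ S₂}) ⟨ha, haS⟩ hx)
      · refine Cfsg.Agent.GenExc.mem_norm_of_comm ?_
        exact Cfsg.Agent.GenExc.comm_Sup fun z hz v hv => hcom a ha haS z hz.1 hz.2 x hx v hv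
    · rw [Subgroup.mem_normalizer_iff]
      intro y
      constructor
      · exact torus_Sup (hp := hp) (fun a (ha : a ∈ {a | a ∈ Sx M.toCoxeterSystem hp.isCartan (ch hp) f.t ∧ a ∈ S₂})
          => ha.1.1) hx
      · intro h1
        have h2 := torus_Sup (hp := hp) (fun a (ha : a ∈ {a | a ∈ Sx M.toCoxeterSystem hp.isCartan (ch hp) f.t ∧ a ∈ S₂})
          => ha.1.1) ((TT D (KK r)).inv_mem hx) h1
        have e : x⁻¹ * (x * y * x⁻¹) * x⁻¹⁻¹ = y := by group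
        rwa [e] at h2
  exact (Subgroup.mem_normalizer_iff.1 (key hg.1) v₂).1 (RGD.le_Sup (X := XX D l (KK r))
    (S := {a | a ∈ Sx M.toCoxeterSystem hp.isCartan (ch hp) f.t ∧ a ∈ S₂}) ⟨hb₂, hb₂'⟩ hv₂)

variable {G Ω : Type} [Group G] [Finite G] [MulAction G Ω] {N : Subgroup G} (hF : Fr m.ι m.σ)
  {V : ↥(D.group (KK r)) → Prop} {U : ↥(D.group (KK r)) → Subgroup ↥(D.group (KK r))}
  (hE : Env G Ω N) (e : N ≃* K₀)

include hF in
/-- **Mixed covers, two parts of `Sx f.t` with long root elements.** -/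
theorem mixed_two [Nonempty Ω] (h : YData m.ι (fixedSubgroup m.σ) r V U) {κ : Type} [Finite κ] {x : κ → G}
    {y : κ → ↥(D.group (KK r))} {ρ : κ → ℕ} (hy : ∀ i, Rep hE e m.ι (x i) (y i)) (hpf : PF y ρ) {i₀ : κ}
    (hi₀ : ρ i₀ = r) {d : ℕ} (hd : r.Coprime d) (hsd : s ^ d = 1) (hs : ∀ i, i ≠ i₀ → y i ∈ zpowers s)
    (hus : y i₀ * s = s * y i₀) {S₂ : Set (Fin l → ℤ)}
    (hcom : ∀ a ∈ Sx M.toCoxeterSystem hp.isCartan (ch hp) f.t, a ∉ S₂ →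
      ∀ b ∈ Sx M.toCoxeterSystem hp.isCartan (ch hp) f.t, b ∈ S₂ →
      ∀ g ∈ XX D l (KK r) a, ∀ g' ∈ XX D l (KK r) b, g * g' = g' * g)
    {b₁ b₂ : Fin l → ℤ} (hb₁ : b₁ ∈ Sx M.toCoxeterSystem hp.isCartan (ch hp) f.t) (hb₁' : b₁ ∉ S₂)
    (hb₂ : b₂ ∈ Sx M.toCoxeterSystem hp.isCartan (ch hp) f.t) (hb₂' : b₂ ∈ S₂) {v₁ v₂ : ↥(D.group (KK r))}
    (hv₁ : v₁ ∈ XX D l (KK r) b₁) (hα₁ : f.α v₁ = v₁) (hV₁ : V (f.z * v₁ * f.z⁻¹))
    (hv₂ : v₂ ∈ XX D l (KK r) b₂) (hα₂ : f.α v₂ = v₂) (hV₂ : V (f.z * v₂ * f.z⁻¹)) : ¬ Cov Ω x := by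
  have hfix := KKz_le f
  refine two_compY hF hE e h hy hpf hi₀ (C := m.ι.range ⊓ KKz f) inf_le_left ?_ ?_ ?_
    (v₁ := f.z * v₁ * f.z⁻¹) (v₂ := f.z * v₂ * f.z⁻¹) ⟨h.vmem _ hV₁, mem_KKz_XX f hb₁ hv₁ hα₁⟩
    ⟨h.vmem _ hV₂, mem_KKz_XX f hb₂ hv₂ hα₂⟩ hV₁ hV₂ ?_
  · intro c hc i hi
    obtain ⟨n, hn⟩ := mem_zpowers_iff.1 (hs i hi)
    rw [← hn]
    exact ((show Commute c s from (mem_fixC.1 (hfix hc.2)).2).zpow_right n)
  · have h1 : y i₀ ^ r = 1 := hi₀ ▸ hpf.pow i₀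
    have h2 : m.σ (y i₀) = y i₀ := Rep.fix hF (hy i₀)
    exact ⟨h.pmem _ h2 h1, mem_KKz_of f hsd h2 hus hd h1⟩
  · refine pCore_normal_bot (C := KKz f) inf_le_right ?_ (core_KKz f)
    rintro c hc z ⟨⟨a, rfl⟩, hz⟩
    obtain ⟨x', hx'⟩ := m.norm c (mem_fixC.1 (hfix hc)).1 a
    exact ⟨⟨x', hx'⟩, (KKz f).mul_mem ((KKz f).mul_mem hc hz) ((KKz f).inv_mem hc)⟩
  · intro g hg
    have h1 := conj_part f hcom hb₂ hb₂' hv₂ ((mem_KKz f).1 hg.2)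
    have h2 : ∀ w ∈ RGD.Sup (XX D l (KK r)) {a | a ∈ Sx M.toCoxeterSystem hp.isCartan (ch hp) f.t ∧ a ∈ S₂},
        v₁ * w = w * v₁ :=
      Cfsg.Agent.GenExc.comm_Sup fun z hz v hv => hcom b₁ hb₁ hb₁' z hz.1 hz.2 v₁ hv₁ v hv
    have h3 := h2 _ h1
    have e1 : f.z * v₁ * f.z⁻¹ * (g * (f.z * v₂ * f.z⁻¹) * g⁻¹) =
        f.z * (v₁ * (f.z⁻¹ * g * f.z * v₂ * (f.z⁻¹ * g * f.z)⁻¹)) * f.z⁻¹ := by group
    have e2 : g * (f.z * v₂ * f.z⁻¹) * g⁻¹ * (f.z * v₁ * f.z⁻¹) =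
        f.z * (f.z⁻¹ * g * f.z * v₂ * (f.z⁻¹ * g * f.z)⁻¹ * v₁) * f.z⁻¹ := by group
    rw [e1, e2, h3]

end

end Cfsg.Agent.H675.RG
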