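import Cfsg.Agent.H675.RG.TwoComp
import Cfsg.Agent.H694.RG.EngP

/-!
# S3509: mixed covers, two commuting normal pieces with long root elements, data in `Y` (helper675)
-/

set_option autoImplicit false
set_option linter.unusedSectionVars false
open Cfsg

namespace Cfsg.Agent.H675.RG

open MulAction Subgroup Cfsg.Agent.H106.RC Cfsg.Agent.H327.RG Cfsg.Agent.H368.RG Cfsg.Agent.H873.RG Cfsg.Agent.H380.RC
  Cfsg.Agent.H694.RG

variable {G Ω : Type} [Group G] [Finite G] [MulAction G Ω] {N : Subgroup G} {Y K₀ : Type} [Group Y] [Group K₀]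
  {ι : K₀ →* Y} {σ : MulAut Y} (hF : Fr ι σ) {p : ℕ} {V : Y → Prop} {U : Y → Subgroup Y}
  (hE : Env G Ω N) (e : N ≃* K₀)

include hF in
/-- **Two commuting normal pieces with long root elements**, in `Y`. -/
theorem two_compY [Nonempty Ω] (h : YData ι (fixedSubgroup σ) p V U) {κ : Type} [Finite κ] {x : κ → G} {y : κ → Y}
    {r : κ → ℕ} (hy : ∀ i, Rep hE e ι (x i) (y i)) (hpf : PF y r) {i₀ : κ} (hi₀ : r i₀ = p)
    {C : Subgroup Y} (hC : C ≤ ι.range) (hCy : ∀ c ∈ C, ∀ i, i ≠ i₀ → c * y i = y i * c) (hu : y i₀ ∈ C)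
    (hB : pCore p ↥C = ⊥) {v₁ v₂ : Y} (h1 : v₁ ∈ C) (h2 : v₂ ∈ C) (hv1 : V v₁) (hv2 : V v₂)
    (h12 : ∀ g ∈ C, v₁ * (g * v₂ * g⁻¹) = g * v₂ * g⁻¹ * v₁) : ¬ Cov Ω x := by
  intro hcov
  obtain ⟨a₁, rfl⟩ := hC h1
  obtain ⟨a₂, rfl⟩ := hC h2
  have hmem : ∀ (g : G) (z : Y), Rep hE e ι g z → (g ∈ lf e ι C ↔ z ∈ C) := fun g z hz => Rep.mem_lf hF hC hz
  have hr1 : Rep hE e ι (e.symm a₁ : G) (ι a₁) := rep_symm a₁
  have hr2 : Rep hE e ι (e.symm a₂ : G) (ι a₂) := rep_symm a₂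
  have hco : ∀ c (hc : c ∈ lf e ι C), Rep hE e ι c (ι (e ⟨c, lf_le C hc⟩)) := fun c hc => rep_coe (lf_le C hc)
  refine two_comp (κ := {i // i ≠ i₀}) hE (lrData hF hE e h) (w := fun k => x k) ?_ ?_ (C₀ := lf e ι C)
    ((lf_le C).trans (le_DG hF)) ?_ ?_ (v₁ := (e.symm a₁ : G)) (v₂ := (e.symm a₂ : G)) ((hmem _ _ hr1).2 h1)
    ((hmem _ _ hr2).2 h2) ⟨a₁, rfl, hv1⟩ ⟨a₂, rfl, hv2⟩ ?_ (u := x i₀) ((hmem _ _ (hy i₀)).2 hu) ?_ ?_
  · rintro ⟨i, hi⟩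
    refine (Rep.ppr hF hE e (hy i)).2 ⟨Rep.fix hF (hy i), hpf.ne i, r i, hpf.prime i, ?_, hpf.pow i⟩
    exact fun h3 => hi (hpf.inj (h3.trans hi₀.symm))
  · exact fun k l => (Rep.comm hF (hy k) (hy l)).2 (hpf.comm k l)
  · intro c hc k
    exact (Rep.comm hF (hco c hc) (hy k)).2 (hCy _ ((hmem _ _ (hco c hc)).1 hc) k k.2)
  · have h3 := Cfsg.Agent.Lib.Cores.map_equiv_pCore (lfEquiv e hF.inj (M := C) hC).symm p
    rw [← h3, hB, Subgroup.map_bot]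
  · intro g hg
    have hg' := hco g hg
    exact (Rep.comm hF hr1 ((hg'.mul hr2).mul hg'.inv)).2 (h12 _ ((hmem _ _ hg').1 hg))
  · exact fun h3 => hpf.ne i₀ ((Rep.eq_one hF (hy i₀)).1 h3)
  · intro ω
    obtain ⟨i, hi⟩ := hcov ω
    by_cases h3 : i = i₀
    · subst h3
      exact Or.inl hi
    · exact Or.inr ⟨⟨i, h3⟩, hi⟩

end Cfsg.Agent.H675.RG
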